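import Cfsg.Agent.H1.J2Cover
import Cfsg.Agent.H777.Ore.Base
import Cfsg.Agent.S1619

/-!
# Every element of the Hall-Janko group is a product of two elements with square one (helper733)
-/

set_option autoImplicit false

namespace Cfsg.Agent.H733.Ore.JTwo

open Cfsg Cfsg.Agent.SporadicA.PermTab Cfsg.Agent.SporadicA.J2Hundred Cfsg.Agent.J2.HundredGens
open Cfsg.Agent.H1.J2Cls Cfsg.Agent.H1.J2Cover

universe u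

/-- the pairs of involutions -/
def pr (j : ℕ) : List ℕ × List ℕ :=
  match j with
  | 0 => ([0], [0])
  | 1 => ([], [0])
  | 2 => ([], [3])
  | 3 => ([0, 1, 0, 1, 0], [1, 0, 1])
  | 4 => ([0, 1, 0, 1, 0, 1, 0, 1, 0], [2, 0, 1, 0, 1, 0, 1, 0, 1, 0, 2])
  | 5 => ([3], [1, 2, 0, 1, 0, 1, 0, 1, 0, 1, 0, 2, 1])
  | 6 => ([3], [4, 3, 4])
  | 7 => ([1, 0, 1, 0, 1, 0, 1], [1, 2, 0, 1, 0, 1, 0, 2, 1])
  | 8 => ([0, 1, 2, 3, 2, 3, 2, 3, 2, 1, 0], [1, 0, 1])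
  | 9 => ([2, 3, 2, 3, 2, 3, 2], [4, 3, 4])
  | 10 => ([3, 4, 0, 1, 0, 1, 2, 3, 2, 3, 2, 3, 2, 1, 0, 1, 0, 4, 3], [2, 0, 1, 0, 1, 0, 1, 0, 1, 0, 2])
  | 11 => ([1, 2, 3, 4, 0, 1, 0, 1, 2, 3, 2, 3, 2, 3, 2, 1, 0, 1, 0, 4, 3, 2, 1], [2, 3, 2])
  | 12 => ([3, 4, 1, 0, 1, 2, 3, 2, 3, 2, 3, 2, 1, 0, 1, 4, 3], [1, 2, 0, 1, 0, 1, 0, 2, 1])
  | 13 => ([0, 1, 2, 3, 2, 3, 2, 3, 2, 1, 0], [4, 1, 2, 3, 2, 3, 2, 3, 2, 1, 4])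
  | 14 => ([3], [2, 3, 2])
  | 15 => ([4, 1, 0, 1, 2, 3, 2, 3, 2, 3, 2, 1, 0, 1, 4],
      [1, 2, 3, 4, 0, 1, 2, 3, 2, 3, 2, 3, 2, 1, 0, 4, 3, 2, 1])
  | 16 => ([0, 1, 0, 1, 2, 3, 2, 3, 2, 3, 2, 1, 0, 1, 0], [1, 2, 3, 2, 1])
  | 17 => ([4, 2, 3, 2, 3, 2, 3, 2, 4], [2, 3, 4, 1, 0, 1, 2, 3, 2, 3, 2, 3, 2, 1, 0, 1, 4, 3, 2])
  | 18 => ([3, 0, 1, 2, 3, 1, 2, 3, 4, 3, 1, 0, 1, 2, 3, 1, 2, 3, 2, 1, 3, 2, 1, 0, 1, 3, 4, 3, 2, 1, 3, 2, 1, 0, 3],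
      [3, 4, 1, 2, 3, 0, 1, 2, 3, 4, 0, 1, 2, 3, 2, 3, 2, 3, 2, 1, 0, 4, 3, 2, 1, 0, 3, 2, 1, 4, 3])
  | 19 => ([4, 1, 0, 1, 2, 3, 2, 3, 2, 3, 2, 1, 0, 1, 4],
      [1, 0, 1, 2, 3, 1, 0, 1, 2, 3, 2, 1, 0, 1, 3, 2, 1, 0, 1])
  | _ => ([3, 2, 3, 4, 0, 1, 0, 1, 2, 3, 2, 3, 2, 3, 2, 1, 0, 1, 0, 4, 3, 2, 3],
      [2, 1, 0, 1, 2, 3, 2, 3, 2, 3, 2, 1, 0, 1, 2])

set_option maxRecDepth 100000 in
theorem chk_pr : ∀ j < 21, ∀ i < 4, run (rL j) (bs i) = run ((pr j).1 ++ (pr j).2) (bs i) ∧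
    run ((pr j).1 ++ (pr j).1) (bs i) = run [] (bs i) ∧ run ((pr j).2 ++ (pr j).2) (bs i) = run [] (bs i) := by
  decide +kernel

theorem rep_two {j : ℕ} (hj : j < 21) : gw (rL j) = gw (pr j).1 * gw (pr j).2 ∧ gw (pr j).1 * gw (pr j).1 = 1 ∧
    gw (pr j).2 * gw (pr j).2 = 1 := by
  rw [← gw_append, ← gw_append, ← gw_append]
  refine ⟨Subtype.ext (pw_eq_of_base fun i hi => (chk_pr j hj i hi).1), ?_, ?_⟩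
  · rw [← gw_nil]
    exact Subtype.ext (pw_eq_of_base fun i hi => (chk_pr j hj i hi).2.1)
  · rw [← gw_nil]
    exact Subtype.ext (pw_eq_of_base fun i hi => (chk_pr j hj i hi).2.2)

theorem two_model (g : G) : ∃ a b : G, a * a = 1 ∧ b * b = 1 ∧ g = a * b := by
  obtain ⟨j, hj, c, hc⟩ := cover g
  obtain ⟨h1, h2, h3⟩ := rep_two hj
  have h4 : g = c⁻¹ * (c * g * c⁻¹) * c := by group
  rw [hc, h1] at h4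
  refine ⟨c⁻¹ * gw (pr j).1 * c, c⁻¹ * gw (pr j).2 * c, ?_, ?_, ?_⟩
  · calc c⁻¹ * gw (pr j).1 * c * (c⁻¹ * gw (pr j).1 * c) = c⁻¹ * (gw (pr j).1 * gw (pr j).1) * c := by group
      _ = 1 := by rw [h2]; group
  · calc c⁻¹ * gw (pr j).2 * c * (c⁻¹ * gw (pr j).2 * c) = c⁻¹ * (gw (pr j).2 * gw (pr j).2) * c := by group
      _ = 1 := by rw [h3]; group
  · refine h4.trans ?_
    group

/-- every element of `J₂` is a product of two elements with square one -/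
theorem two_j2 {S : Type u} [Group S] (h : Spor.IsoJ2 S) (g : S) : ∃ a b : S, a * a = 1 ∧ b * b = 1 ∧ g = a * b := by
  obtain ⟨f⟩ := J2.HundredGens.J2_iso S1619.result.2.2.2
  obtain ⟨e⟩ := h
  obtain ⟨a, b, h1, h2, h3⟩ := two_model ((e.trans f) g)
  refine ⟨(e.trans f).symm a, (e.trans f).symm b, ?_, ?_, ?_⟩
  · rw [← map_mul, h1, map_one]
  · rw [← map_mul, h2, map_one]
  · apply (e.trans f).injective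
    rw [map_mul, MulEquiv.apply_symm_apply, MulEquiv.apply_symm_apply, h3]

/-- **the row `J₂` of S4171** -/
theorem inv4_j2 {S : Type u} [Group S] (h : Spor.IsoJ2 S) : H777.Ore.Inv4 S := by
  intro g
  obtain ⟨a, b, h1, h2, h3⟩ := two_j2 h g
  exact ⟨a, b, 1, 1, h1, h2, mul_one 1, mul_one 1, by rw [h3, mul_one, mul_one]⟩

end Cfsg.Agent.H733.Ore.JTwo
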